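import Cfsg.Agent.H226.Tall.Defs
import Cfsg.Agent.H138.Tall.AltPerm
import Cfsg.Agent.S2119

/-!
# S2927: the alternating groups of degree at least 12 (`No1`)
-/

set_option autoImplicit false
set_option linter.unusedSectionVars false

namespace Cfsg.Agent.H138.Tall

open Subgroup Cfsg Equiv Equiv.Perm
open Cfsg.Agent.H239.CharPLocal (CP)
open Cfsg.Agent.H226.Tall

universe u

section Phi

/-- the action of `G` on the letters -/
theorem exists_phi {G : Type u} [Group G] {n : ℕ} (hn : 4 ≤ n) (h6 : n ≠ 6) {K : Subgroup G} [K.Normal]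
    (hc : centralizer (K : Set G) = ⊥) (e : K ≃* alternatingGroup (Fin n)) :
    ∃ φ : G →* Perm (Fin n), Function.Injective φ ∧ ∀ k : K, φ k = e k := by
  let b : Perm (Fin n) ≃* MulAut (alternatingGroup (Fin n)) :=
    MulEquiv.ofBijective (MulAut.conjNormal : Perm (Fin n) →* MulAut (alternatingGroup (Fin n)))
      (Cfsg.Agent.S2119.result n hn h6)
  let E : MulAut K ≃* MulAut (alternatingGroup (Fin n)) := MulAut.congr e
  let φ : G →* Perm (Fin n) := (b.symm.toMonoidHom.comp E.toMonoidHom).comp (MulAut.conjNormal : G →* MulAut K)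
  refine ⟨φ, ?_, ?_⟩
  · rw [injective_iff_map_eq_one]
    intro g hg
    have h1 : (MulAut.conjNormal : G →* MulAut K) g = 1 := by
      have h2 : b.symm (E ((MulAut.conjNormal : G →* MulAut K) g)) = 1 := hg
      rw [map_eq_one_iff _ b.symm.injective, map_eq_one_iff _ E.injective] at h2
      exact h2
    have h3 : g ∈ centralizer (K : Set G) := by
      rw [mem_centralizer_iff]
      intro k hk
      have h4 := congrArg Subtype.val (DFunLike.congr_fun h1 (⟨k, hk⟩ : K))
      rw [MulAut.conjNormal_apply] at h4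
      change g * k * g⁻¹ = k at h4
      rw [mul_inv_eq_iff_eq_mul] at h4
      exact h4.symm
    rw [hc, mem_bot] at h3
    exact h3
  · intro k
    change b.symm (E ((MulAut.conjNormal : G →* MulAut K) k)) = e k
    rw [MulEquiv.symm_apply_eq]
    ext1 a
    apply Subtype.ext
    change ((e ((MulAut.conjNormal (k : G) : MulAut K) (e.symm a)) : alternatingGroup (Fin n)) : Perm (Fin n)) =
      ((MulAut.conjNormal ((e k : alternatingGroup (Fin n)) : Perm (Fin n)) a : alternatingGroup (Fin n)) : Perm (Fin n))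
    have h1 : (MulAut.conjNormal (k : G) : MulAut K) (e.symm a) = k * e.symm a * k⁻¹ := by
      apply Subtype.ext
      rw [MulAut.conjNormal_apply]
      rfl
    rw [h1, MulAut.conjNormal_apply, map_mul, map_mul, map_inv, MulEquiv.apply_symm_apply]
    rfl

end Phi

section Sub

variable {α : Type*} [DecidableEq α] [Fintype α] {p : α → Prop} [DecidablePred p]

theorem conj_ofSubtype (f : Perm α) (h : ∀ x, p (f x) ↔ p x) (τ : Perm (Subtype p)) :
    f * ofSubtype τ * f⁻¹ = ofSubtype (f.subtypePerm h * τ * (f.subtypePerm h)⁻¹) := by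
  rw [mul_inv_eq_iff_eq_mul]
  ext x
  rw [Perm.mul_apply, Perm.mul_apply]
  by_cases hx : p x
  · have hx' : p (f x) := (h x).2 hx
    rw [ofSubtype_apply_of_mem τ hx, ofSubtype_apply_of_mem _ hx', Perm.mul_apply, Perm.mul_apply]
    have h1 : (f.subtypePerm h)⁻¹ ⟨f x, hx'⟩ = ⟨x, hx⟩ := by
      rw [Perm.inv_eq_iff_eq]; rfl
    rw [h1]; rfl
  · have hx' : ¬ p (f x) := fun h' => hx ((h x).1 h')
    rw [ofSubtype_apply_of_not_mem τ hx, ofSubtype_apply_of_not_mem _ hx']

/-- permutations of the fixed points of `ζ` commute with `ζ` -/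
theorem ofSubtype_comm {ζ : Perm α} (τ : Perm {i // ζ i = i}) : ofSubtype τ * ζ = ζ * ofSubtype τ := by
  ext x
  rw [Perm.mul_apply, Perm.mul_apply]
  by_cases hx : ζ x = x
  · rw [hx, ofSubtype_apply_of_mem τ hx, (τ ⟨x, hx⟩).2]
  · rw [ofSubtype_apply_of_not_mem τ hx]
    exact ofSubtype_apply_of_not_mem τ (fun h => hx (ζ.injective h))

theorem fix_iff {ζ f : Perm α} (h : f * ζ = ζ * f) (x : α) : ζ (f x) = f x ↔ ζ x = x := by
  have h1 : ζ (f x) = f (ζ x) := by
    rw [← Perm.mul_apply, ← h, Perm.mul_apply]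
  rw [h1]
  exact f.injective.eq_iff

end Sub

section Fix

variable {G : Type u} [Group G] {n : ℕ} {φ : G →* Perm (Fin n)}

/-- **`z` has at most 4 fixed points, if its centralizer is of characteristic 2** -/
theorem fix_le (hφ : Function.Injective φ) (hA : ∀ σ : Perm (Fin n), sign σ = 1 → ∃ g : G, φ g = σ) {z : G}
    (hcp : CP 2 ↥(centralizer ({z} : Set G))) : Nat.card {i // φ z i = i} ≤ 4 := by
  classical
  by_contra hc
  have h5 : 5 ≤ Nat.card {i // φ z i = i} := by omega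
  let C := centralizer ({z} : Set G)
  have hmem : ∀ g : G, φ g * φ z = φ z * φ g → g ∈ C := by
    intro g hg
    rw [mem_centralizer_singleton_iff]
    apply hφ
    rw [map_mul, map_mul, hg]
  have hmem' : ∀ g : G, g ∈ C → φ g * φ z = φ z * φ g := by
    intro g hg
    rw [← map_mul, ← map_mul, mem_centralizer_singleton_iff.1 hg]
  let θ : Perm {i // φ z i = i} →* Perm (Fin n) := ofSubtype
  have hθ : Function.Injective θ := ofSubtype_injective
  let H : Subgroup (Perm {i // φ z i = i}) := (((pCore 2 ↥C).map C.subtype).map φ).comap θ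
  have hH : H = ⊥ := by
    refine two_bot h5 H ?_ ?_
    · rintro h ⟨_, ⟨o, ho, rfl⟩, h1⟩
      obtain ⟨k, hk⟩ := Cfsg.Agent.Lib.Cores.pCore_isPGroup (G := ↥C) 2 ⟨o, ho⟩
      refine ⟨k, hθ ?_⟩
      have h2 : o ^ 2 ^ k = 1 := congrArg Subtype.val hk
      rw [map_pow, ← h1, map_one]
      change (φ (o : G)) ^ 2 ^ k = 1
      rw [← map_pow, ← Subgroup.coe_pow, h2, Subgroup.coe_one, map_one]
    · rintro σ hσ h ⟨_, ⟨o, ho, rfl⟩, h1⟩
      obtain ⟨k, hk⟩ := hA (θ σ) (by
        change sign (ofSubtype σ) = 1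
        rw [sign_ofSubtype, hσ.sign])
      have hkC : k ∈ C := hmem k (by rw [hk]; exact ofSubtype_comm σ)
      refine ⟨_, ⟨⟨k, hkC⟩ * o * ⟨k, hkC⟩⁻¹, (Cfsg.pCore_normal 2 ↥C).conj_mem _ ho _, rfl⟩, ?_⟩
      change φ (k * (o : G) * k⁻¹) = θ (σ * h * σ⁻¹)
      rw [map_mul, map_mul, map_inv, hk, map_mul, map_mul, map_inv, ← h1]
      rfl
  obtain ⟨x, y, w, hxy, hxw, hyw⟩ := exists_three (α := {i // φ z i = i}) (by omega)
  have h3 := isThreeCycle_swap_mul_swap_same hxy hxw hyw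
  set τ := swap x y * swap x w with hτ
  obtain ⟨k, hk⟩ := hA (θ τ) (by
    change sign (ofSubtype τ) = 1
    rw [sign_ofSubtype, h3.sign])
  have hkC : k ∈ C := hmem k (by rw [hk]; exact ofSubtype_comm τ)
  have h4 : (⟨k, hkC⟩ : ↥C) ∈ centralizer (pCore 2 ↥C : Set ↥C) := by
    rw [mem_centralizer_iff]
    intro o ho
    have ho' : φ (o : G) * φ z = φ z * φ (o : G) := hmem' _ o.2
    -- the commutator
    have h5 : (⟨k, hkC⟩ : ↥C) * o * (⟨k, hkC⟩ : ↥C)⁻¹ * o⁻¹ ∈ pCore 2 ↥C :=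
      (pCore 2 ↥C).mul_mem ((Cfsg.pCore_normal 2 ↥C).conj_mem _ ho _) ((pCore 2 ↥C).inv_mem ho)
    have h6 : φ (k * (o : G) * k⁻¹ * (o : G)⁻¹) =
        θ (τ * ((φ (o : G)).subtypePerm (fix_iff ho') * τ⁻¹ * ((φ (o : G)).subtypePerm (fix_iff ho'))⁻¹)) := by
      have e1 : θ ((φ (o : G)).subtypePerm (fix_iff ho') * τ⁻¹ * ((φ (o : G)).subtypePerm (fix_iff ho'))⁻¹) =
          φ (o : G) * θ τ⁻¹ * (φ (o : G))⁻¹ := (conj_ofSubtype (φ (o : G)) (fix_iff ho') τ⁻¹).symm
      rw [map_mul θ, e1, map_inv θ, ← hk, map_mul φ, map_mul φ, map_mul φ, map_inv φ, map_inv φ]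
      group
    have h7 : τ * ((φ (o : G)).subtypePerm (fix_iff ho') * τ⁻¹ * ((φ (o : G)).subtypePerm (fix_iff ho'))⁻¹) ∈ H :=
      ⟨_, ⟨_, h5, rfl⟩, h6⟩
    rw [hH, mem_bot] at h7
    rw [h7, map_one] at h6
    have h8 := (injective_iff_map_eq_one φ).1 hφ _ h6
    apply Subtype.ext
    change (o : G) * k = k * o
    rw [mul_inv_eq_one, mul_inv_eq_iff_eq_mul] at h8
    exact h8.symm
  have h5' := hcp h4
  have h6 : τ ∈ H := ⟨_, ⟨_, h5', rfl⟩, hk⟩
  rw [hH, mem_bot] at h6
  have h7 := h3.orderOf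
  rw [h6, orderOf_one] at h7
  omega

end Fix

section Inv

/-- the number of elements with `k * k = 1` is even in a group of even order -/
theorem odd_invol {K : Type*} [Group K] [Finite K] (h : 2 ∣ Nat.card K) :
    Nat.card {k : K // k * k = 1 ∧ k ≠ 1} % 2 = 1 := by
  classical
  have := Fintype.ofFinite K
  have : Fact (Nat.Prime 2) := ⟨Nat.prime_two⟩
  let P := Multiplicative (ZMod 2)
  let f : Perm K := Equiv.inv K
  have hf : f ^ 2 = 1 := by
    ext k
    simp [f, pow_two]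
  let _ : MulAction (Subgroup.zpowers f) K := inferInstance
  have hP : IsPGroup 2 (Subgroup.zpowers f) := by
    refine IsPGroup.iff_card.2 ?_
    rw [Nat.card_zpowers]
    obtain ⟨k, -, hk⟩ := (Nat.dvd_prime_pow Nat.prime_two).1 (orderOf_dvd_of_pow_eq_one (x := f) (n := 2 ^ 1) (by simpa using hf))
    exact ⟨k, hk⟩
  have h1 := hP.card_modEq_card_fixedPoints K
  have h2 : Nat.card (MulAction.fixedPoints (Subgroup.zpowers f) K) = Nat.card {k : K // k * k = 1} := by
    refine Nat.card_congr (Equiv.subtypeEquivRight (fun k => ?_))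
    rw [MulAction.mem_fixedPoints]
    constructor
    · intro hk
      have h3 := hk ⟨f, Subgroup.mem_zpowers f⟩
      change k⁻¹ = k at h3
      nth_rewrite 1 [← h3]
      exact inv_mul_cancel k
    · rintro hk ⟨g, hg⟩
      obtain ⟨m, rfl⟩ := Subgroup.mem_zpowers_iff.1 hg
      have h3 : f k = k := by
        change k⁻¹ = k
        exact inv_eq_of_mul_eq_one_left hk
      change (f ^ m) k = k
      exact Perm.zpow_apply_eq_self_of_apply_eq_self h3 m
  rw [h2] at h1
  have h3 : Nat.card {k : K // k * k = 1} = Nat.card {k : K // k * k = 1 ∧ k ≠ 1} + 1 := by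
    rw [Nat.card_eq_fintype_card, Nat.card_eq_fintype_card, Fintype.card_subtype, Fintype.card_subtype]
    have h4 : (Finset.univ.filter (fun k : K => k * k = 1)) =
        insert 1 (Finset.univ.filter (fun k : K => k * k = 1 ∧ k ≠ 1)) := by
      ext k
      simp only [Finset.mem_filter, Finset.mem_univ, true_and, Finset.mem_insert]
      by_cases hk : k = 1
      · subst hk; simp
      · simp [hk]
    rw [h4, Finset.card_insert_of_notMem (by simp)]
  have h4 : Nat.card K % 2 = 0 := Nat.mod_eq_zero_of_dvd h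
  have h5 : Nat.card K % 2 = Nat.card {k : K // k * k = 1} % 2 := h1
  omega

/-- an involution of a normal subgroup of even order centralised by `S` -/
theorem exists_central_inv {G : Type u} [Group G] [Finite G] (S : Sylow 2 G) (K : Subgroup G) [hK : K.Normal]
    (h : 2 ∣ Nat.card K) : ∃ z ∈ K, z * z = 1 ∧ z ≠ 1 ∧ ∀ s ∈ (S : Subgroup G), s * z = z * s := by
  have : Fact (Nat.Prime 2) := ⟨Nat.prime_two⟩
  let _ : MulAction (S : Subgroup G) {k : K // k * k = 1 ∧ k ≠ 1} :=
    { smul := fun s k => ⟨⟨s * k.1 * (s : G)⁻¹, hK.conj_mem _ k.1.2 _⟩, by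
        obtain ⟨⟨k, hk⟩, h1, h2⟩ := k
        have h1' : k * k = 1 := congrArg Subtype.val h1
        refine ⟨Subtype.ext ?_, fun h => h2 (Subtype.ext ?_)⟩
        · change (s : G) * k * (s : G)⁻¹ * ((s : G) * k * (s : G)⁻¹) = 1
          have e : (s : G) * k * (s : G)⁻¹ * ((s : G) * k * (s : G)⁻¹) = s * (k * k) * (s : G)⁻¹ := by group
          rw [e, h1']; group
        · have h3 : (s : G) * k * (s : G)⁻¹ = 1 := congrArg Subtype.val h
          rw [mul_inv_eq_one] at h3
          exact mul_eq_left.1 h3⟩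
      one_smul := fun k => Subtype.ext (Subtype.ext (by
        change (1 : G) * k.1 * (1 : G)⁻¹ = k.1
        group))
      mul_smul := fun a b k => Subtype.ext (Subtype.ext (by
        change ((a * b : G)) * k.1 * ((a * b : G))⁻¹ = (a : G) * (b * k.1 * (b : G)⁻¹) * (a : G)⁻¹
        group)) }
  have h1 := S.2.card_modEq_card_fixedPoints {k : K // k * k = 1 ∧ k ≠ 1}
  have h2 := odd_invol h
  have h3 : Nonempty (MulAction.fixedPoints (S : Subgroup G) {k : K // k * k = 1 ∧ k ≠ 1}) := by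
    rw [← not_isEmpty_iff]
    intro h
    have h5 : Nat.card (MulAction.fixedPoints (S : Subgroup G) {k : K // k * k = 1 ∧ k ≠ 1}) = 0 :=
      Nat.card_of_isEmpty
    rw [h5] at h1
    have h4 : Nat.card {k : K // k * k = 1 ∧ k ≠ 1} % 2 = 0 % 2 := h1
    omega
  obtain ⟨⟨k, hk⟩⟩ := h3
  refine ⟨k.1, k.1.2, congrArg Subtype.val k.2.1, fun h => k.2.2 (Subtype.ext h), fun s hs => ?_⟩
  have h4 := congrArg (fun v : {k : K // k * k = 1 ∧ k ≠ 1} => (v.1 : G)) (hk ⟨s, hs⟩)
  change s * k.1 * s⁻¹ = k.1 at h4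
  rwa [mul_inv_eq_iff_eq_mul] at h4

end Inv

section Four

variable {G : Type u} [Group G] [Finite G] {n : ℕ} {φ : G →* Perm (Fin n)}

/-- if `z` has exactly 4 fixed points there is another involution of `Z(S)`, with support these 4 points -/
theorem exists_four (hφ : Function.Injective φ) (hA : ∀ σ : Perm (Fin n), sign σ = 1 → ∃ g : G, φ g = σ)
    (S : Sylow 2 G) {z : G} (hz : ∀ s ∈ (S : Subgroup G), s * z = z * s) (h4 : Nat.card {i // φ z i = i} = 4) :
    ∃ a : G, a * a = 1 ∧ a ≠ 1 ∧ (∀ s ∈ (S : Subgroup G), s * a = a * s) ∧ ∀ i, φ z i ≠ i → φ a i = i := by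
  classical
  let e : {i // φ z i = i} ≃ Fin 4 := (Finite.equivFinOfCardEq h4)
  have hs : ∀ s : (S : Subgroup G), φ (s : G) * φ z = φ z * φ (s : G) := by
    intro s
    rw [← map_mul, ← map_mul, hz s s.2]
  let f : (S : Subgroup G) →* Perm (Fin 4) := MonoidHom.mk'
    (fun s => e.permCongr ((φ (s : G)).subtypePerm (fix_iff (hs s)))) (by
      intro a b
      ext i
      simp [Equiv.permCongr_apply, Perm.subtypePerm_apply])
  obtain ⟨v, hv1, hv2, hv3, hv4⟩ := klein S.2 f
  let θ : Perm {i // φ z i = i} →* Perm (Fin n) := ofSubtype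
  have hθ : Function.Injective θ := ofSubtype_injective
  let w : Perm {i // φ z i = i} := e.symm.permCongr v
  have hw : ∀ u : Perm (Fin 4), e.symm.permCongr u = e.symm.permCongrHom u := fun _ => rfl
  obtain ⟨a, ha⟩ := hA (θ w) (by
    change sign (ofSubtype w) = 1
    rw [sign_ofSubtype, Perm.sign_permCongr, hv3])
  refine ⟨a, ?_, ?_, ?_, ?_⟩
  · apply hφ
    rw [map_mul, ha, ← map_mul, map_one]
    have : w * w = 1 := by
      change e.symm.permCongrHom v * e.symm.permCongrHom v = 1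
      rw [← map_mul, hv1, map_one]
    rw [this, map_one]
  · rintro rfl
    rw [map_one] at ha
    have h1 : w = 1 := hθ (by rw [← ha, map_one])
    apply hv2
    have h2 : e.symm.permCongrHom v = 1 := h1
    rwa [map_eq_one_iff _ e.symm.permCongrHom.injective] at h2
  · intro s hsS
    apply hφ
    rw [map_mul, map_mul, ha]
    have h1 := conj_ofSubtype (φ s) (fix_iff (hs ⟨s, hsS⟩)) w
    have h2 : (φ s).subtypePerm (fix_iff (hs ⟨s, hsS⟩)) * w * ((φ s).subtypePerm (fix_iff (hs ⟨s, hsS⟩)))⁻¹ = w := by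
      rw [mul_inv_eq_iff_eq_mul]
      have h3 := hv4 ⟨s, hsS⟩
      have h4 : (φ s).subtypePerm (fix_iff (hs ⟨s, hsS⟩)) = e.symm.permCongrHom (f ⟨s, hsS⟩) := by
        refine Equiv.ext fun i => ?_
        change _ = (e.symm.permCongr (e.permCongr ((φ s).subtypePerm (fix_iff (hs ⟨s, hsS⟩))))) i
        simp [Equiv.permCongr_apply, Perm.subtypePerm_apply]
      rw [h4]
      change e.symm.permCongrHom (f ⟨s, hsS⟩) * e.symm.permCongrHom v = e.symm.permCongrHom v * e.symm.permCongrHom (f ⟨s, hsS⟩)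
      rw [← map_mul, h3, map_mul]
    rw [h2, mul_inv_eq_iff_eq_mul] at h1
    exact h1
  · intro i hi
    rw [ha]
    exact ofSubtype_apply_of_not_mem w hi

end Four

section Final

theorem exists_not_mem {α : Type*} [DecidableEq α] {s : Finset α} (t : Finset α) (h : t.card < s.card) :
    ∃ a ∈ s, a ∉ t := by
  by_contra hc
  push Not at hc
  have := Finset.card_le_card (show s ⊆ t from fun a ha => hc a ha)
  omega

/-- **The alternating groups of degree at least 12.** -/
theorem no1_alt_big {n : ℕ} (hn : 12 ≤ n) : No1.{u} (fun K _ => Nonempty (K ≃* ↥(alternatingGroup (Fin n)))) := by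
  classical
  intro G _ _ S Q M Y x K H ⟨e⟩
  have nK := H.nK
  obtain ⟨φ, hφ, hφe⟩ := exists_phi (by omega) (by omega) H.cent e
  have hA : ∀ σ : Perm (Fin n), sign σ = 1 → ∃ g : G, φ g = σ := by
    intro σ hσ
    refine ⟨(e.symm ⟨σ, mem_alternatingGroup.2 hσ⟩ : K), ?_⟩
    rw [hφe, MulEquiv.apply_symm_apply]
  have hK2 : 2 ∣ Nat.card K := by
    rw [Nat.card_congr e.toEquiv]
    have : Nontrivial (Fin n) := Fin.nontrivial_iff_two_le.2 (by omega)
    have h1 := two_mul_nat_card_alternatingGroup (α := Fin n)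
    rw [Nat.card_perm, Nat.card_eq_fintype_card (α := Fin n), Fintype.card_fin] at h1
    have h2 : 4 ∣ n.factorial := by
      have : Nat.factorial 4 ∣ n.factorial := Nat.factorial_dvd_factorial (by omega)
      exact (by decide : 4 ∣ Nat.factorial 4).trans this
    rw [← h1] at h2
    omega
  obtain ⟨z, hzK, hz2, hz1, hzS⟩ := exists_central_inv S K hK2
  have key : ∀ a : G, a * a = 1 → a ≠ 1 → (∀ s ∈ (S : Subgroup G), s * a = a * s) → a ∈ Q ∧
      centralizer ({a} : Set G) ≤ normalizer (Q : Set G) ∧ CP 2 ↥(centralizer ({a} : Set G)) := by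
    intro a ha ha1 haS
    have h1 : a ∈ Q := H.zS a haS ⟨1, by rw [pow_one, pow_two, ha]⟩
    exact ⟨h1, H.good a h1 ha1 (fun q hq => haS q (H.Q_le hq))⟩
  obtain ⟨hzQ, hzN, hzC⟩ := key z hz2 hz1 hzS
  set ζ := φ z with hζ
  have hζ2 : ζ * ζ = 1 := by rw [hζ, ← map_mul, hz2, map_one]
  -- the number of fixed points
  have hcf : Nat.card {i // ζ i = i} + ζ.support.card = n := by
    have h1 : Nat.card {i // ζ i = i} = (Finset.univ.filter (fun i => ζ i = i)).card := by
      rw [Nat.card_eq_fintype_card, Fintype.card_subtype]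
    have h2 : ζ.support = Finset.univ.filter (fun i => ¬ ζ i = i) := by
      ext i; simp [Perm.mem_support]
    rw [h1, h2, Finset.card_filter_add_card_filter_not, Finset.card_univ, Fintype.card_fin]
  have h4 := fix_le hφ hA hzC
  have h4' : Nat.card {i // ζ i = i} ≠ 4 := by
    intro h5
    obtain ⟨a, ha2, ha1, haS, haf⟩ := exists_four hφ hA S hzS h5
    have h6 := fix_le hφ hA (key a ha2 ha1 haS).2.2
    have h7 : ζ.support.card ≤ Nat.card {i // φ a i = i} := by
      rw [Nat.card_eq_fintype_card, Fintype.card_subtype]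
      refine Finset.card_le_card (fun i hi => ?_)
      rw [Finset.mem_filter]
      exact ⟨Finset.mem_univ _, haf i (Perm.mem_support.1 hi)⟩
    omega
  have hsup : 9 ≤ ζ.support.card := by
    rw [← hζ] at h4
    omega
  -- `Q` fixes the transpositions
  have hQC : ∀ q ∈ Q, q * z = z * q := fun q hq => hzS q (H.Q_le hq)
  have hpairs := pairs_bot hζ2 hsup (Q.map φ) (by
      rintro _ ⟨q, hq, rfl⟩
      obtain ⟨k, hk⟩ := S.2 ⟨q, H.Q_le hq⟩
      refine ⟨k, ?_⟩
      have h5 : q ^ 2 ^ k = 1 := congrArg Subtype.val hk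
      rw [← map_pow, h5, map_one]) (by
      rintro _ ⟨q, hq, rfl⟩
      rw [hζ, ← map_mul, ← map_mul, hQC q hq]) (by
      rintro σ hσ hs _ ⟨q, hq, rfl⟩
      obtain ⟨k, rfl⟩ := hA σ hs
      have hk : k ∈ centralizer ({z} : Set G) := by
        rw [mem_centralizer_singleton_iff]
        apply hφ
        rw [map_mul, map_mul]
        exact hσ
      exact ⟨k * q * k⁻¹, (mem_normalizer_iff.1 (hzN hk) q).1 hq, by rw [map_mul, map_mul, map_inv]⟩)
  -- four points
  have hζζ : ∀ i, ζ (ζ i) = i := fun i => by rw [← Perm.mul_apply, hζ2]; rfl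
  obtain ⟨i, hi, -⟩ := exists_not_mem (s := ζ.support) (∅ : Finset (Fin n)) (by rw [Finset.card_empty]; omega)
  obtain ⟨j, hj, hj'⟩ := exists_not_mem (s := ζ.support) ({i, ζ i} : Finset (Fin n))
    (lt_of_le_of_lt Finset.card_le_two (by omega))
  obtain ⟨k, hk, hk'⟩ := exists_not_mem (s := ζ.support) ({i, ζ i, j, ζ j} : Finset (Fin n))
    (lt_of_le_of_lt Finset.card_le_four (by omega))
  obtain ⟨l, hl, hl'⟩ := exists_not_mem (s := ζ.support) ({i, ζ i, j, ζ j, k, ζ k} : Finset (Fin n))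
    (lt_of_le_of_lt Finset.card_le_six (by omega))
  rw [Perm.mem_support] at hi hj hk hl
  simp only [Finset.mem_insert, Finset.mem_singleton, not_or] at hj' hk' hl'
  obtain ⟨hji, hjzi⟩ := hj'
  obtain ⟨hki, hkzi, hkj, hkzj⟩ := hk'
  obtain ⟨hli, hlzi, hlj, hlzj, hlk, hlzk⟩ := hl'
  have hzki : ζ k ≠ i := fun h => hkzi (by rw [← h, hζζ])
  have hzkj : ζ k ≠ j := fun h => hkzj (by rw [← h, hζζ])
  have hzkzi : ζ k ≠ ζ i := fun h => hki (ζ.injective h)
  have hzkzj : ζ k ≠ ζ j := fun h => hkj (ζ.injective h)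
  have hswap : ∀ a b : Fin n, a ≠ b → sign (swap a b) = -1 := fun a b h => Perm.sign_swap h
  have hQmem : ∀ a b, ζ a ≠ a → ζ b ≠ b → ∃ g ∈ Q, φ g = swap a (ζ a) * swap b (ζ b) := by
    intro a b ha hb
    obtain ⟨g, hg⟩ := hA (swap a (ζ a) * swap b (ζ b)) (by
      rw [map_mul, hswap _ _ ha.symm, hswap _ _ hb.symm]; rfl)
    refine ⟨g, H.Q_cent ?_, hg⟩
    rw [mem_centralizer_iff]
    intro q hq
    apply hφ
    rw [map_mul, map_mul, hg]
    have h5 := hpairs (φ q) ⟨q, hq, rfl⟩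
    rw [← mul_assoc, h5 a, mul_assoc, h5 b, mul_assoc]
  obtain ⟨t, htQ, ht⟩ := hQmem i j hi hj
  obtain ⟨t', ht'Q, ht'⟩ := hQmem i k hi hk
  have hcommQ : ∀ g ∈ Q, (∃ a b, φ g = swap a (ζ a) * swap b (ζ b)) → ∀ q ∈ Q, q * g = g * q := by
    rintro g hg ⟨a, b, hab⟩ q hq
    apply hφ
    rw [map_mul, map_mul, hab]
    have h5 := hpairs (φ q) ⟨q, hq, rfl⟩
    rw [← mul_assoc, h5 a, mul_assoc, h5 b, mul_assoc]
  have ht1 : t ≠ 1 := by
    rintro rfl
    rw [map_one] at ht
    have h5 := congrArg (fun f : Perm (Fin n) => f i) ht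
    simp only [Perm.mul_apply, Perm.one_apply] at h5
    rw [swap_apply_of_ne_of_ne (a := j) (Ne.symm hji) (fun h => hjzi (by rw [h, hζζ])), swap_apply_left] at h5
    exact hi h5.symm
  obtain ⟨htN, -⟩ := H.good t htQ ht1 (hcommQ t htQ ⟨i, j, ht⟩)
  -- the 3-cycle
  obtain ⟨γ, hγ⟩ := hA (swap k (ζ k) * swap (ζ k) l) (by
    rw [map_mul, hswap _ _ hk.symm, hswap _ _ (Ne.symm hlzk)]; rfl)
  have hγt : γ ∈ centralizer ({t} : Set G) := by
    rw [mem_centralizer_singleton_iff]
    apply hφ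
    rw [map_mul, map_mul, hγ, ht]
    have c1 : Commute (swap k (ζ k)) (swap i (ζ i)) := (Perm.Disjoint.commute (Perm.disjoint_swap_swap (by
      simp [hki, hkzi, hzki, hzkzi, hk.symm, hi.symm])))
    have c2 : Commute (swap k (ζ k)) (swap j (ζ j)) := (Perm.Disjoint.commute (Perm.disjoint_swap_swap (by
      simp [hkj, hkzj, hzkj, hzkzj, hk.symm, hj.symm])))
    have c3 : Commute (swap (ζ k) l) (swap i (ζ i)) := (Perm.Disjoint.commute (Perm.disjoint_swap_swap (by
      simp [hzki, hzkzi, hli, hlzi, Ne.symm hlzk, hi.symm])))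
    have c4 : Commute (swap (ζ k) l) (swap j (ζ j)) := (Perm.Disjoint.commute (Perm.disjoint_swap_swap (by
      simp [hzkj, hzkzj, hlj, hlzj, Ne.symm hlzk, hj.symm])))
    exact ((c1.mul_right c2).mul_left (c3.mul_right c4)).eq
  have h5 : γ * t' * γ⁻¹ ∈ Q := (mem_normalizer_iff.1 (htN hγt) t').1 ht'Q
  have h6 := hpairs _ ⟨_, h5, rfl⟩ k
  rw [map_mul, map_mul, map_inv, ht', hγ] at h6
  set c := swap k (ζ k) * swap (ζ k) l with hc
  have c1 : c i = i := by
    rw [hc, Perm.mul_apply, swap_apply_of_ne_of_ne (Ne.symm hzki) (Ne.symm hli),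
      swap_apply_of_ne_of_ne (Ne.symm hki) (Ne.symm hzki)]
  have c2 : c (ζ i) = ζ i := by
    rw [hc, Perm.mul_apply, swap_apply_of_ne_of_ne (Ne.symm hzkzi) (Ne.symm hlzi),
      swap_apply_of_ne_of_ne (Ne.symm hkzi) (Ne.symm hzkzi)]
  have c3 : c k = ζ k := by
    rw [hc, Perm.mul_apply, swap_apply_of_ne_of_ne (Ne.symm hk) (Ne.symm hlk), swap_apply_left]
  have c4 : c (ζ k) = l := by
    rw [hc, Perm.mul_apply, swap_apply_left, swap_apply_of_ne_of_ne hlk hlzk]
  have h7 : c * (swap i (ζ i) * swap k (ζ k)) * c⁻¹ = swap i (ζ i) * swap (ζ k) l := by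
    have e1 : c * (swap i (ζ i) * swap k (ζ k)) * c⁻¹ = (c * swap i (ζ i) * c⁻¹) * (c * swap k (ζ k) * c⁻¹) := by
      group
    rw [e1, ← swap_apply_apply, ← swap_apply_apply, c1, c2, c3, c4]
  rw [h7] at h6
  have h8 := congrArg (fun f : Perm (Fin n) => f k) h6
  simp only [Perm.mul_apply, swap_apply_left] at h8
  rw [swap_apply_of_ne_of_ne hli hlzi, swap_apply_of_ne_of_ne (Ne.symm hk) (Ne.symm hlk),
    swap_apply_of_ne_of_ne hki hkzi, swap_apply_left] at h8
  exact hlzk h8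

end Final

end Cfsg.Agent.H138.Tall
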